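import Cfsg.Agent.H41.J2TC.Jw.RChk0

set_option autoImplicit false
set_option linter.all false

namespace Cfsg.Agent.H41.J2P

open Cfsg.Agent.H35

theorem tjw_rall : ∀ p, p < 3587 → tjw_rf p = true := by
  apply allR_blocks tjw_rf 3587 9 8 _ (by decide)
  intro k hk
  interval_cases k
  · exact tjw_rchk_0
  · exact tjw_rchk_1
  · exact tjw_rchk_2
  · exact tjw_rchk_3
  · exact tjw_rchk_4
  · exact tjw_rchk_5
  · exact tjw_rchk_6
  · exact tjw_rchk_7

theorem tjw_circ_ok : circChk (fullW jw_rws jw_prels) tjw_circT 0 tjw_ccert = true := by decide +kernel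
theorem tjw_hc_ok : allR (fun c => hcChk tjw_rsw tjw_hc1T tjw_hc2T c) 4 2 0 = true := by decide +kernel
theorem tjw_h0 : RData.aord (tjw_rd.ent 0 1) = 0 := by decide +kernel

end Cfsg.Agent.H41.J2P
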