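import Cfsg.Agent.H41.J2TC.Jw.RTab

set_option autoImplicit false
set_option linter.all false
set_option Elab.async false

namespace Cfsg.Agent.H41.J2P

open Cfsg.Agent.H35

theorem tjw_rchk_0 : allR tjw_rf 3587 9 (0 * 2 ^ 9) = true := by decide +kernel
theorem tjw_rchk_1 : allR tjw_rf 3587 9 (1 * 2 ^ 9) = true := by decide +kernel
theorem tjw_rchk_2 : allR tjw_rf 3587 9 (2 * 2 ^ 9) = true := by decide +kernel
theorem tjw_rchk_3 : allR tjw_rf 3587 9 (3 * 2 ^ 9) = true := by decide +kernel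
theorem tjw_rchk_4 : allR tjw_rf 3587 9 (4 * 2 ^ 9) = true := by decide +kernel
theorem tjw_rchk_5 : allR tjw_rf 3587 9 (5 * 2 ^ 9) = true := by decide +kernel
theorem tjw_rchk_6 : allR tjw_rf 3587 9 (6 * 2 ^ 9) = true := by decide +kernel
theorem tjw_rchk_7 : allR tjw_rf 3587 9 (7 * 2 ^ 9) = true := by decide +kernel

end Cfsg.Agent.H41.J2P
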